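import Mathlib

/-!
# S2536 package PK6 (Jordan): a transitive group of prime degree containing a cycle
with a fixed point has even order
-/

set_option autoImplicit false

namespace Cfsg.Agent.Lib.Helper90.HT

open MulAction Equiv

theorem even_card_of_prime_degree {Ω : Type*} [Fintype Ω] [DecidableEq Ω]
    {H : Subgroup (Equiv.Perm Ω)}
    (hp : (Fintype.card Ω).Prime) (htr : ∀ x y : Ω, ∃ h ∈ H, h x = y)
    (b : Equiv.Perm Ω) (hb : b ∈ H) (hc : b.IsCycle)
    (hlt : b.support.card < Fintype.card Ω) : 2 ∣ Nat.card H := by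
  haveI : MulAction.IsPretransitive H Ω :=
    ⟨fun x y => by obtain ⟨h, hh, hxy⟩ := htr x y; exact ⟨⟨h, hh⟩, hxy⟩⟩
  have hprim : MulAction.IsPreprimitive H Ω :=
    MulAction.IsPreprimitive.of_prime_card (by rwa [Nat.card_eq_fintype_card])
  have hsupp2 : 2 ≤ b.support.card := hc.two_le_card_support
  have hcompl : b.support.card + ((b.support : Set Ω)ᶜ).ncard = Fintype.card Ω := by
    rw [← Set.ncard_coe_finset b.support, Set.ncard_add_ncard_compl, Nat.card_eq_fintype_card]
  obtain ⟨n, hn⟩ : ∃ n, ((b.support : Set Ω)ᶜ).ncard = n + 1 :=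
    ⟨((b.support : Set Ω)ᶜ).ncard - 1, by omega⟩
  have h2 : MulAction.IsMultiplyPretransitive H Ω 2 :=
    hprim.is_two_pretransitive hn (by rw [Nat.card_eq_fintype_card]; omega)
      (Equiv.Perm.isPretransitive_of_isCycle_mem hc hb)
  rw [MulAction.is_two_pretransitive_iff] at h2
  obtain ⟨x, hx⟩ : ∃ x, b x ≠ x := by
    obtain ⟨x, hx, -⟩ := hc
    exact ⟨x, hx⟩
  obtain ⟨g, hg1, hg2⟩ := h2 hx (Ne.symm hx)
  have hg2' : (g : Perm Ω) x = b x := hg2
  have hg1' : (g : Perm Ω) (b x) = x := hg1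
  have hord : 2 ∣ orderOf g := by
    by_contra hodd
    have hpow : ∀ k : ℕ, ((g : Perm Ω) ^ (2 * k + 1)) x = b x := by
      intro k
      induction k with
      | zero => simpa using hg2'
      | succ k ih =>
        have h3 : 2 * (k + 1) + 1 = 2 + (2 * k + 1) := by ring
        rw [h3, pow_add, Perm.mul_apply, ih, pow_two, Perm.mul_apply, hg1', hg2']
    have h1 : ((g : Perm Ω) ^ orderOf g) x = x := by
      rw [← Subgroup.coe_pow, pow_orderOf_eq_one]
      rfl
    have h4 : orderOf g = 2 * (orderOf g / 2) + 1 := by omega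
    rw [h4, hpow] at h1
    exact hx h1
  exact hord.trans (orderOf_dvd_natCard g)

end Cfsg.Agent.Lib.Helper90.HT
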